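import Mathlib

/-! The ternary Golay code of `Def_SporadicCombinatorics`: information positions, the coefficients of
all twelve positions in them, and the supports of the weight 6 words (generated by computer). -/

namespace Cfsg.Lib.TernaryGolay

def info : List ℕ := [0, 1, 2, 3, 4, 6]

def coef : List (List ℕ) :=
  [[1, 0, 0, 0, 0, 0],
   [0, 1, 0, 0, 0, 0],
   [0, 0, 1, 0, 0, 0],
   [0, 0, 0, 1, 0, 0],
   [0, 0, 0, 0, 1, 0],
   [1, 1, 1, 2, 2, 0],
   [0, 0, 0, 0, 0, 1],
   [0, 2, 1, 2, 1, 1],
   [1, 2, 0, 1, 2, 1],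
   [1, 2, 2, 2, 0, 2],
   [1, 0, 1, 1, 1, 2],
   [2, 2, 1, 0, 2, 2]]

def blockList : List (ℕ × ℕ × ℕ) :=
  [(63, 134, 229),
   (222, 393, 696),
   (237, 289, 551),
   (243, 410, 574),
   (347, 439, 626),
   (366, 318, 528),
   (373, 335, 667),
   (413, 154, 200),
   (427, 32, 61),
   (438, 102, 177),
   (455, 269, 499),
   (504, 459, 594),
   (591, 284, 565),
   (630, 429, 579),
   (633, 379, 677),
   (667, 112, 224),
   (679, 17, 22),
   (700, 117, 234),
   (725, 415, 587),
   (746, 276, 543),
   (791, 97, 185),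
   (813, 37, 74),
   (826, 141, 192),
   (860, 369, 711),
   (867, 247, 494),
   (910, 51, 66),
   (945, 83, 163),
   (969, 299, 514),
   (978, 327, 654),
   (996, 252, 504),
   (1117, 479, 604),
   (1127, 259, 509),
   (1146, 354, 708),
   (1175, 95, 187),
   (1198, 39, 78),
   (1209, 137, 190),
   (1227, 301, 521),
   (1268, 342, 657),
   (1295, 49, 71),
   (1331, 85, 170),
   (1340, 144, 207),
   (1366, 417, 591),
   (1385, 272, 541),
   (1434, 114, 219),
   (1445, 10, 20),
   (1484, 279, 558),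
   (1489, 325, 650),
   (1506, 249, 489),
   (1566, 156, 204),
   (1579, 34, 59),
   (1589, 100, 173),
   (1619, 332, 652),
   (1644, 306, 531),
   (1677, 47, 64),
   (1714, 87, 165),
   (1734, 264, 501),
   (1752, 432, 621),
   (1761, 245, 487),
   (1817, 110, 217),
   (1830, 12, 24),
   (1861, 262, 497),
   (1866, 303, 516),
   (1904, 405, 567),
   (1923, 5, 7),
   (1940, 90, 180),
   (1960, 27, 54),
   (2135, 346, 665),
   (2155, 305, 517),
   (2172, 441, 639),
   (2191, 43, 77),
   (2229, 91, 182),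
   (2234, 138, 195),
   (2265, 353, 703),
   (2278, 255, 510),
   (2334, 120, 240),
   (2343, 14, 25),
   (2361, 109, 218),
   (2381, 307, 533),
   (2418, 330, 651),
   (2451, 89, 166),
   (2476, 45, 63),
   (2506, 273, 546),
   (2516, 423, 576),
   (2529, 244, 488),
   (2589, 146, 208),
   (2606, 48, 69),
   (2611, 86, 169),
   (2650, 462, 600),
   (2661, 263, 496),
   (2710, 105, 174),
   (2729, 29, 55),
   (2755, 250, 491),
   (2764, 315, 522),
   (2800, 324, 648),
   (2827, 35, 58),
   (2868, 99, 171),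
   (2886, 258, 507),
   (2897, 407, 568),
   (2920, 270, 540),
   (2949, 11, 19),
   (2968, 135, 189),
   (2978, 3, 6),
   (3099, 142, 194),
   (3117, 38, 73),
   (3126, 96, 183),
   (3150, 294, 552),
   (3185, 406, 569),
   (3228, 126, 225),
   (3235, 4, 8),
   (3269, 254, 505),
   (3282, 411, 570),
   (3304, 297, 513),
   (3349, 101, 172),
   (3370, 33, 57),
   (3395, 248, 493),
   (3416, 378, 675),
   (3428, 261, 495),
   (3462, 15, 21),
   (3465, 28, 56),
   (3504, 81, 162),
   (3591, 13, 26),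
   (3640, 108, 216),
   (3657, 271, 542),
   (3668, 333, 666),
   (3682, 246, 492),
   (3722, 30, 60),
   (3729, 82, 164),
   (3748, 9, 18),
   (3852, 36, 72),
   (3858, 84, 168),
   (3873, 1, 2),
   (4032, 243, 486)]

end Cfsg.Lib.TernaryGolay
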