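import Mathlib
import Cfsg.Prelude.Def_SporadicCombinatorics
import Cfsg.Agent.Lib.TernaryGolay.Data

/-! The ternary Golay code of `Def_SporadicCombinatorics` as the words with numbers below 729. -/

namespace Cfsg.Lib.TernaryGolay

open Cfsg

def idx (p : ArrayPt) : ℕ := 3 * p.1.val + p.2.val

def pt (i : ℕ) : ArrayPt := (Fin.ofNat 4 (i / 3), ((i % 3 : ℕ) : ZMod 3))

theorem idx_lt (p : ArrayPt) : idx p < 12 := by revert p; decide

theorem pt_idx (p : ArrayPt) : pt (idx p) = p := by revert p; decide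

theorem idx_pt : ∀ i < 12, idx (pt i) = i := by decide

def idxEquiv : ArrayPt ≃ Fin 12 where
  toFun p := ⟨idx p, idx_lt p⟩
  invFun i := pt i
  left_inv p := pt_idx p
  right_inv i := Fin.ext (idx_pt i i.2)

def dig (n i : ℕ) : ℕ := n / 3 ^ i % 3

/-- Coordinate `i` of word number `n`. -/
def val (n i : ℕ) : ℕ :=
  ((List.range 6).map fun j => (coef.getD i []).getD j 0 * dig n j).sum % 3

/-- Word number `n`. -/
def word (n : ℕ) : ArrayPt → ZMod 3 := fun p => (val n (idx p) : ZMod 3)

/-- The support of word number `n` as a bit mask. -/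
def mask (n : ℕ) : ℕ := Nat.ofBits fun i : Fin 12 => decide (val n i ≠ 0)

def toSet (m : ℕ) : Finset ArrayPt := Finset.univ.filter fun p => m.testBit (idx p)

def pop (m : ℕ) : ℕ := (List.range 12).countP fun i => m.testBit i

def setMask (s : Finset ArrayPt) : ℕ := Nat.ofBits fun i : Fin 12 => decide (pt i ∈ s)

theorem mem_toSet {m : ℕ} {p : ArrayPt} : p ∈ toSet m ↔ m.testBit (idx p) = true := by
  simp [toSet]

theorem setMask_lt (s : Finset ArrayPt) : setMask s < 4096 := Nat.ofBits_lt_two_pow _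

theorem toSet_setMask (s : Finset ArrayPt) : toSet (setMask s) = s := by
  ext p
  simp only [mem_toSet, setMask, Nat.testBit_ofBits_lt _ _ (idx_lt p), pt_idx, decide_eq_true_eq]

theorem card_toSet (m : ℕ) : (toSet m).card = pop m := by
  rw [toSet, pop, List.countP_eq_length_filter,
    ← List.toFinset_card_of_nodup (List.nodup_range.filter _)]
  refine Finset.card_bij (fun p _ => idx p) ?_ ?_ ?_
  · intro p hp; simp only [Finset.mem_filter] at hp; simp [hp.2, idx_lt]
  · intro p _ q _ h; rw [← pt_idx p, h, pt_idx]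
  · intro i hi
    simp only [List.mem_toFinset, List.mem_filter, List.mem_range] at hi
    exact ⟨pt i, by simp [idx_pt i hi.1, hi.2], idx_pt i hi.1⟩

theorem word_ne_zero_iff (n : ℕ) (p : ArrayPt) : word n p ≠ 0 ↔ val n (idx p) ≠ 0 := by
  have h : val n (idx p) < 3 := Nat.mod_lt _ (by norm_num)
  rw [word, Ne, ZMod.natCast_eq_zero_iff]
  omega

theorem support_word (n : ℕ) : ternarySupport (word n) = toSet (mask n) := by
  ext p
  simp only [ternarySupport, Finset.mem_filter, Finset.mem_univ, true_and, word_ne_zero_iff,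
    mem_toSet, mask, Nat.testBit_ofBits_lt _ _ (idx_lt p), decide_eq_true_eq]

theorem mem_tetracode {t : Fin 4 → ZMod 3} :
    t ∈ tetracode ↔ ∃ a b : ZMod 3, t = ![b, a, a + b, a + 2 * b] := by
  rw [tetracode, Submodule.mem_span_pair]
  refine exists_congr fun a => exists_congr fun b => ?_
  have h : a • (![0, 1, 1, 1] : Fin 4 → ZMod 3) + b • ![1, 0, 1, 2] = ![b, a, a + b, a + 2 * b] := by
    funext i; fin_cases i <;> simp [mul_comm]
  rw [h, eq_comm]

theorem word_mem_iff (n : ℕ) : word n ∈ ternaryGolayCode ↔ ∃ s : ZMod 3,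
    (∀ i : Fin 4, word n (i, 0) + word n (i, 1) + word n (i, 2) = -s) ∧
      ∀ a b : ZMod 3, word n (0, b) + word n (1, a) + word n (2, a + b) + word n (3, a + 2 * b) = s := by
  refine exists_congr fun s => and_congr (forall_congr' fun i => ?_) ⟨fun h a b => ?_, fun h t ht => ?_⟩
  · have h3 : ∑ r : ZMod 3, word n (i, r) = word n (i, 0) + word n (i, 1) + word n (i, 2) :=
      Fin.sum_univ_three (fun r : ZMod 3 => word n (i, r))
    rw [h3]
  · have h4 := h _ (mem_tetracode.2 ⟨a, b, rfl⟩)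
    simpa [Fin.sum_univ_four] using h4
  · obtain ⟨a, b, rfl⟩ := mem_tetracode.1 ht
    simpa [Fin.sum_univ_four] using h a b

set_option maxHeartbeats 1000000 in
theorem word_check : ∀ n < 729, ∃ s : ZMod 3,
    (∀ i : Fin 4, word n (i, 0) + word n (i, 1) + word n (i, 2) = -s) ∧
      ∀ a b : ZMod 3, word n (0, b) + word n (1, a) + word n (2, a + b) + word n (3, a + 2 * b) = s := by
  decide +kernel

theorem word_mem {n : ℕ} (h : n < 729) : word n ∈ ternaryGolayCode :=
  (word_mem_iff n).2 (word_check n h)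

theorem word_injective : ∀ n < 729, ∀ m < 729, word n = word m → n = m := by
  have key : ∀ n < 729, ((List.range 6).map fun j => val n (info.getD j 0) * 3 ^ j).sum = n := by
    decide +kernel
  intro n hn m hm h
  have hv : ∀ i < 12, val n i = val m i := by
    intro i hi
    have h1 := congrFun h (pt i)
    simp only [word, idx_pt i hi] at h1
    have := congrArg ZMod.val h1
    have hn3 : val n i < 3 := Nat.mod_lt _ (by norm_num)
    have hm3 : val m i < 3 := Nat.mod_lt _ (by norm_num)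
    rwa [ZMod.val_natCast_of_lt hn3, ZMod.val_natCast_of_lt hm3] at this
  rw [← key n hn, ← key m hm]
  congr 1
  refine List.map_congr_left fun j hj => ?_
  have : ∀ j < 6, info.getD j 0 < 12 := by decide
  rw [hv _ (this j (List.mem_range.1 hj))]

theorem exists_word {x : ArrayPt → ZMod 3} (hx : x ∈ ternaryGolayCode) :
    ∃ n < 729, x = word n := by
  obtain ⟨s, hc', ht'⟩ := hx
  have hc : ∀ i : Fin 4, x (i, 0) + x (i, 1) + x (i, 2) = -s := fun i => by
    rw [← hc' i]; exact (Fin.sum_univ_three (fun r : ZMod 3 => x (i, r))).symm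
  have hq : ∀ a b : ZMod 3, x (0, b) + x (1, a) + x (2, a + b) + x (3, a + 2 * b) = s := fun a b => by
    have h4 := ht' _ (mem_tetracode.2 ⟨a, b, rfl⟩)
    simpa [Fin.sum_univ_four] using h4
  have t00 : x (0, 0) + x (1, 0) + x (2, 0) + x (3, 0) = s := hq 0 0
  have t10 : x (0, 0) + x (1, 1) + x (2, 1) + x (3, 1) = s := hq 1 0
  have t20 : x (0, 0) + x (1, 2) + x (2, 2) + x (3, 2) = s := hq 2 0
  have t01 : x (0, 1) + x (1, 0) + x (2, 1) + x (3, 2) = s := hq 0 1
  have h5 : x (1, 2) = x (0, 0) + x (0, 1) + x (0, 2) + 2 * x (1, 0) + 2 * x (1, 1) := by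
    linear_combination (norm := (ring_nf; reduce_mod_char)) 2 * hc 0 + 2 * hc 2 + 2 * hc 3 + 1 * t00 + 1 * t10 + 1 * t20
  have h7 : x (2, 1) = 2 * x (0, 1) + x (0, 2) + 2 * x (1, 0) + x (1, 1) + x (2, 0) := by
    linear_combination (norm := (ring_nf; reduce_mod_char)) 2 * hc 0 + 1 * hc 3 + 2 * t00 + 2 * t10 + 2 * t01
  have h8 : x (2, 2) = x (0, 0) + 2 * x (0, 1) + x (1, 0) + 2 * x (1, 1) + x (2, 0) := by
    linear_combination (norm := (ring_nf; reduce_mod_char)) 1 * hc 2 + 2 * hc 3 + 1 * t00 + 1 * t10 + 1 * t01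
  have h9 : x (3, 0) = x (0, 0) + 2 * x (0, 1) + 2 * x (0, 2) + 2 * x (1, 0) + 2 * x (2, 0) := by
    linear_combination (norm := (ring_nf; reduce_mod_char)) 1 * hc 0 + 1 * t00
  have h10 : x (3, 1) = x (0, 0) + x (0, 2) + x (1, 0) + x (1, 1) + 2 * x (2, 0) := by
    linear_combination (norm := (ring_nf; reduce_mod_char)) 2 * hc 0 + 2 * hc 3 + 1 * t00 + 2 * t10 + 1 * t01
  have h11 : x (3, 2) = 2 * x (0, 0) + 2 * x (0, 1) + x (0, 2) + 2 * x (1, 1) + 2 * x (2, 0) := by
    linear_combination (norm := (ring_nf; reduce_mod_char)) 2 * hc 0 + 2 * hc 3 + 1 * t00 + 1 * t10 + 2 * t01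
  refine ⟨(x (0, 0)).val + 3 * (x (0, 1)).val + 9 * (x (0, 2)).val + 27 * (x (1, 0)).val +
    81 * (x (1, 1)).val + 243 * (x (2, 0)).val, ?_, ?_⟩
  · have hlt : ∀ p, (x p).val < 3 := fun p => ZMod.val_lt _
    have := hlt (0, 0); have := hlt (0, 1); have := hlt (0, 2)
    have := hlt (1, 0); have := hlt (1, 1); have := hlt (2, 0)
    omega
  · funext p
    generalize hn : (x (0, 0)).val + 3 * (x (0, 1)).val + 9 * (x (0, 2)).val + 27 * (x (1, 0)).val +
      81 * (x (1, 1)).val + 243 * (x (2, 0)).val = n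
    have hlt : ∀ p, (x p).val < 3 := fun p => ZMod.val_lt _
    have := hlt (0, 0); have := hlt (0, 1); have := hlt (0, 2)
    have := hlt (1, 0); have := hlt (1, 1); have := hlt (2, 0)
    have d0 : dig n 0 = (x (0, 0)).val := by simp only [dig]; omega
    have d1 : dig n 1 = (x (0, 1)).val := by simp only [dig]; omega
    have d2 : dig n 2 = (x (0, 2)).val := by simp only [dig]; omega
    have d3 : dig n 3 = (x (1, 0)).val := by simp only [dig]; omega
    have d4 : dig n 4 = (x (1, 1)).val := by simp only [dig]; omega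
    have d5 : dig n 5 = (x (2, 0)).val := by simp only [dig]; omega
    have hw : ∀ q : ArrayPt, word n q = ((List.range 6).map fun j =>
        (((coef.getD (idx q) []).getD j 0 : ℕ) : ZMod 3) * (dig n j : ZMod 3)).sum := by
      intro q
      simp [word, val, List.range_succ]
    rw [hw, ← pt_idx p, idx_pt _ (idx_lt p)]
    have hk := idx_lt p
    generalize idx p = k at hk ⊢
    obtain ⟨e0, e1, e2, e3, e4, e5, e6, e7, e8, e9, e10, e11⟩ : pt 0 = ((0 : Fin 4), (0 : ZMod 3)) ∧ pt 1 = ((0 : Fin 4), (1 : ZMod 3)) ∧ pt 2 = ((0 : Fin 4), (2 : ZMod 3)) ∧ pt 3 = ((1 : Fin 4), (0 : ZMod 3)) ∧ pt 4 = ((1 : Fin 4), (1 : ZMod 3)) ∧ pt 5 = ((1 : Fin 4), (2 : ZMod 3)) ∧ pt 6 = ((2 : Fin 4), (0 : ZMod 3)) ∧ pt 7 = ((2 : Fin 4), (1 : ZMod 3)) ∧ pt 8 = ((2 : Fin 4), (2 : ZMod 3)) ∧ pt 9 = ((3 : Fin 4), (0 : ZMod 3)) ∧ pt 10 = ((3 : Fin 4), (1 : ZMod 3)) ∧ pt 11 = ((3 : Fin 4), (2 : ZMod 3)) := by decide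
    interval_cases k <;>
      simp [coef, List.range_succ, d0, d1, d2, d3, d4, d5, h5, h7, h8, h9, h10, h11, e0, e1, e2, e3, e4, e5, e6, e7, e8, e9, e10, e11] <;> ring

theorem mem_iff {x : ArrayPt → ZMod 3} : x ∈ ternaryGolayCode ↔ ∃ n < 729, x = word n :=
  ⟨exists_word, fun ⟨_, hn, he⟩ => he ▸ word_mem hn⟩

theorem code_eq : (ternaryGolayCode : Set (ArrayPt → ZMod 3)) = word '' Set.Iio 729 := by
  ext x; simp only [SetLike.mem_coe, mem_iff, Set.mem_image, Set.mem_Iio, eq_comm]

theorem ncard_words (P : ℕ → Prop) [DecidablePred P] (Q : (ArrayPt → ZMod 3) → Prop)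
    (hPQ : ∀ n < 729, Q (word n) ↔ P n) :
    {x : ArrayPt → ZMod 3 | x ∈ ternaryGolayCode ∧ Q x}.ncard =
      ((List.range 729).filter fun n => decide (P n)).length := by
  have h : {x : ArrayPt → ZMod 3 | x ∈ ternaryGolayCode ∧ Q x} =
      ((((List.range 729).filter fun n => decide (P n)).toFinset.image word : Finset _) : Set _) := by
    ext x
    simp only [Set.mem_ofPred_eq, mem_iff, Finset.coe_image, Set.mem_image, Finset.mem_coe,
      List.mem_toFinset, List.mem_filter, List.mem_range, decide_eq_true_eq]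
    constructor
    · rintro ⟨⟨n, hn, rfl⟩, hQ⟩; exact ⟨n, ⟨hn, (hPQ n hn).1 hQ⟩, rfl⟩
    · rintro ⟨n, ⟨hn, hP⟩, rfl⟩; exact ⟨⟨n, hn, rfl⟩, (hPQ n hn).2 hP⟩
  rw [h, Set.ncard_coe_finset, Finset.card_image_of_injOn,
    List.toFinset_card_of_nodup (List.nodup_range.filter _)]
  intro n hn m hm
  simp only [List.coe_toFinset, Set.mem_ofPred_eq, List.mem_filter, List.mem_range] at hn hm
  exact word_injective n hn.1 m hm.1

theorem card_support (n : ℕ) : (ternarySupport (word n)).card = pop (mask n) := by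
  rw [support_word, card_toSet]

/-- The supports of the weight 6 words. -/
def blockMasks : List ℕ := blockList.map Prod.fst

theorem blockMasks_facts : blockMasks.Nodup ∧ blockMasks.length = 132 ∧
    (∀ e ∈ blockList, e.1 < 4096 ∧ pop e.1 = 6 ∧ e.2.1 < 729 ∧ mask e.2.1 = e.1) := by
  decide +kernel

theorem blocks_complete : ∀ n < 729, pop (mask n) = 6 →
    blockList.any (fun e => decide (e.1 = mask n) && (decide (n = e.2.1) || decide (n = e.2.2))) = true := by
  decide +kernel

theorem neg_pair : ∀ e ∈ blockList, ∀ p : ArrayPt, word e.2.2 p = - word e.2.1 p := by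
  decide +kernel

theorem supports_six : {h : Finset ArrayPt | ∃ x ∈ ternaryGolayCode, ternarySupport x = h ∧ h.card = 6} =
    ((blockMasks.toFinset.image toSet : Finset _) : Set (Finset ArrayPt)) := by
  ext h
  simp only [Set.mem_ofPred_eq, Finset.coe_image, Set.mem_image, Finset.mem_coe, List.mem_toFinset,
    blockMasks, List.mem_map]
  constructor
  · rintro ⟨x, hx, rfl, h6⟩
    obtain ⟨n, hn, rfl⟩ := exists_word hx
    rw [card_support] at h6
    obtain ⟨e, he, h2⟩ := List.any_eq_true.1 (blocks_complete n hn h6)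
    simp only [Bool.and_eq_true, decide_eq_true_eq] at h2
    exact ⟨mask n, ⟨e, he, h2.1⟩, (support_word n).symm⟩
  · rintro ⟨m, ⟨e, he, rfl⟩, rfl⟩
    obtain ⟨-, h6, hn, hm⟩ := blockMasks_facts.2.2 e he
    refine ⟨word e.2.1, word_mem hn, ?_, ?_⟩
    · rw [support_word, hm]
    · rw [card_toSet, h6]

theorem toSet_injOn {m m' : ℕ} (hm : m < 4096) (hm' : m' < 4096) (h : toSet m = toSet m') : m = m' := by
  refine Nat.eq_of_testBit_eq fun i => ?_
  by_cases hi : i < 12
  · have := Finset.ext_iff.1 h (pt i)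
    simp only [mem_toSet, idx_pt i hi] at this
    exact Bool.eq_iff_iff.2 this
  · have hle : (4096 : ℕ) ≤ 2 ^ i := Nat.pow_le_pow_right (n := 2) (i := 12) (by omega) (by omega)
    rw [Nat.testBit_lt_two_pow (lt_of_lt_of_le hm hle), Nat.testBit_lt_two_pow (lt_of_lt_of_le hm' hle)]

theorem subset_toSet {m b : ℕ} (hm : m < 4096) : toSet m ⊆ toSet b ↔ b &&& m = m := by
  constructor
  · intro h
    refine Nat.eq_of_testBit_eq fun i => ?_
    rw [Nat.testBit_and]
    by_cases hi : i < 12
    · cases h' : m.testBit i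
      · simp
      · have := h (x := pt i) (by rw [mem_toSet, idx_pt i hi, h'])
        rw [mem_toSet, idx_pt i hi] at this
        simp [this]
    · have hle : (4096 : ℕ) ≤ 2 ^ i := Nat.pow_le_pow_right (n := 2) (i := 12) (by omega) (by omega)
      simp [Nat.testBit_lt_two_pow (lt_of_lt_of_le hm hle)]
  · intro h p hp
    rw [mem_toSet] at hp ⊢
    rw [← h, Nat.testBit_and, Bool.and_eq_true] at hp
    exact hp.1

theorem steiner_check : ∀ q < 64, ∀ r < 64, pop (64 * q + r) = 5 →
    (blockMasks.filter fun b => decide (b &&& (64 * q + r) = 64 * q + r)).length = 1 := by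
  decide +kernel

theorem isSteiner : IsSteinerSystem 5 6
    {h : Finset ArrayPt | ∃ x ∈ ternaryGolayCode, ternarySupport x = h ∧ h.card = 6} := by
  refine ⟨fun b hb => ?_, fun s hs => ?_⟩
  · obtain ⟨x, -, -, h6⟩ := hb; exact h6
  have hm := setMask_lt s
  have h5 : pop (setMask s) = 5 := by rw [← card_toSet, toSet_setMask, hs]
  obtain ⟨b, hb⟩ := List.length_eq_one_iff.1 (show (blockMasks.filter fun b =>
      decide (b &&& setMask s = setMask s)).length = 1 by
    have h := steiner_check (setMask s / 64) (by omega) (setMask s % 64) (Nat.mod_lt _ (by norm_num))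
    rw [show 64 * (setMask s / 64) + setMask s % 64 = setMask s from Nat.div_add_mod _ _] at h
    exact h h5)
  have hb' : b ∈ blockMasks.filter fun b => decide (b &&& setMask s = setMask s) := by simp [hb]
  rw [List.mem_filter, decide_eq_true_eq] at hb'
  rw [supports_six]
  refine ⟨toSet b, ⟨?_, ?_⟩, ?_⟩
  · simp only [Finset.coe_image, Set.mem_image, Finset.mem_coe, List.mem_toFinset]
    exact ⟨b, hb'.1, rfl⟩
  · conv_lhs => rw [← toSet_setMask s]
    exact (subset_toSet hm).2 hb'.2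
  · rintro c ⟨hc, hsc⟩
    simp only [Finset.coe_image, Set.mem_image, Finset.mem_coe, List.mem_toFinset] at hc
    obtain ⟨d, hd, rfl⟩ := hc
    have hd' : d ∈ blockMasks.filter fun b => decide (b &&& setMask s = setMask s) := by
      rw [List.mem_filter, decide_eq_true_eq]
      refine ⟨hd, (subset_toSet hm).1 ?_⟩
      rwa [toSet_setMask]
    rw [hb, List.mem_singleton] at hd'
    rw [hd']

theorem ncard_supports_six :
    {h : Finset ArrayPt | ∃ x ∈ ternaryGolayCode, ternarySupport x = h ∧ h.card = 6}.ncard = 132 := by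
  rw [supports_six, Set.ncard_coe_finset, Finset.card_image_of_injOn,
    List.toFinset_card_of_nodup blockMasks_facts.1, blockMasks_facts.2.1]
  intro m hm m' hm' h
  simp only [List.coe_toFinset, Set.mem_ofPred_eq, blockMasks, List.mem_map] at hm hm'
  obtain ⟨e, he, rfl⟩ := hm
  obtain ⟨e', he', rfl⟩ := hm'
  exact toSet_injOn (blockMasks_facts.2.2 e he).1 (blockMasks_facts.2.2 e' he').1 h

end Cfsg.Lib.TernaryGolay
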