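import Mathlib
import Cfsg.Agent.Lib.TernaryGolay.Code
import Cfsg.Agent.Lib.SteinerCert.Models

/-! The monomial automorphism group of the ternary Golay code. -/

set_option autoImplicit false
set_option maxRecDepth 100000

namespace Cfsg.Lib.TernaryGolay

open Cfsg
open scoped Pointwise

/-- Certified monomial automorphisms: level, point, permutation, inverse, signs, images of the basis words. -/
def elts : List (ℕ × ℕ × List ℕ × List ℕ × List ℕ × List ℕ) := [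
  (0, 0, [0, 1, 2, 3, 4, 5, 6, 7, 8, 9, 10, 11], [0, 1, 2, 3, 4, 5, 6, 7, 8, 9, 10, 11], [1, 1, 1, 1, 1, 1, 1, 1, 1, 1, 1, 1], [1, 3, 9, 27, 81, 243]),
  (0, 1, [1, 0, 2, 3, 4, 5, 11, 9, 10, 7, 8, 6], [1, 0, 2, 3, 4, 5, 11, 9, 10, 7, 8, 6], [1, 1, 1, 1, 1, 1, 1, 1, 1, 1, 1, 1], [489, 487, 252, 27, 567, 486]),
  (0, 2, [1, 2, 0, 3, 4, 5, 7, 8, 6, 11, 9, 10], [2, 0, 1, 3, 4, 5, 8, 6, 7, 10, 11, 9], [1, 1, 1, 1, 1, 1, 1, 1, 1, 1, 1, 1], [246, 495, 1, 270, 567, 243]),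
  (0, 3, [1, 2, 3, 0, 4, 5, 8, 7, 9, 10, 6, 11], [3, 0, 1, 2, 4, 5, 10, 7, 6, 8, 9, 11], [1, 2, 2, 1, 2, 2, 2, 1, 1, 2, 1, 1], [492, 18, 513, 487, 648, 243]),
  (0, 4, [1, 2, 3, 4, 0, 5, 6, 10, 11, 7, 8, 9], [4, 0, 1, 2, 3, 5, 6, 9, 10, 11, 7, 8], [1, 2, 2, 1, 2, 2, 2, 1, 1, 2, 1, 1], [6, 18, 27, 162, 1, 486]),
  (0, 5, [1, 2, 3, 4, 5, 0, 7, 9, 8, 6, 11, 10], [5, 0, 1, 2, 3, 4, 9, 6, 8, 7, 11, 10], [1, 2, 2, 1, 2, 2, 2, 1, 1, 2, 1, 1], [493, 262, 271, 407, 2, 243]),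
  (0, 6, [1, 2, 3, 4, 7, 6, 0, 8, 10, 5, 9, 11], [6, 0, 1, 2, 3, 9, 5, 4, 7, 10, 8, 11], [1, 2, 1, 2, 2, 2, 2, 1, 1, 2, 1, 1], [492, 495, 540, 405, 243, 1]),
  (0, 7, [1, 2, 3, 4, 9, 10, 11, 0, 7, 8, 6, 5], [7, 0, 1, 2, 3, 11, 10, 8, 9, 4, 5, 6], [1, 1, 2, 2, 2, 2, 2, 1, 1, 2, 1, 1], [489, 20, 541, 650, 487, 244]),
  (0, 8, [1, 2, 3, 4, 8, 11, 9, 6, 0, 10, 5, 7], [8, 0, 1, 2, 3, 10, 7, 11, 4, 6, 9, 5], [1, 1, 1, 1, 2, 2, 2, 1, 1, 2, 1, 1], [4, 254, 513, 406, 488, 487]),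
  (0, 9, [1, 2, 3, 4, 6, 7, 5, 11, 9, 0, 10, 8], [9, 0, 1, 2, 3, 6, 4, 5, 11, 8, 10, 7], [1, 2, 1, 2, 2, 2, 2, 1, 1, 2, 1, 1], [7, 11, 56, 164, 486, 2]),
  (0, 10, [1, 2, 3, 4, 11, 8, 10, 7, 5, 9, 0, 6], [10, 0, 1, 2, 3, 8, 11, 7, 5, 9, 6, 4], [1, 1, 1, 1, 2, 2, 2, 1, 1, 2, 1, 1], [247, 252, 514, 163, 244, 245]),
  (0, 11, [1, 2, 3, 4, 10, 9, 8, 5, 6, 11, 7, 0], [11, 0, 1, 2, 3, 7, 8, 10, 6, 5, 4, 9], [1, 1, 2, 2, 2, 2, 2, 1, 1, 2, 1, 1], [491, 263, 55, 648, 245, 488]),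
  (1, 1, [0, 1, 2, 3, 4, 5, 6, 7, 8, 9, 10, 11], [0, 1, 2, 3, 4, 5, 6, 7, 8, 9, 10, 11], [1, 1, 1, 1, 1, 1, 1, 1, 1, 1, 1, 1], [1, 3, 9, 27, 81, 243]),
  (1, 2, [0, 2, 1, 3, 4, 5, 9, 10, 11, 6, 7, 8], [0, 2, 1, 3, 4, 5, 9, 10, 11, 6, 7, 8], [1, 1, 1, 1, 1, 1, 1, 1, 1, 1, 1, 1], [244, 495, 489, 513, 81, 486]),
  (1, 3, [0, 2, 3, 1, 4, 5, 10, 9, 7, 8, 11, 6], [0, 3, 1, 2, 4, 5, 11, 8, 9, 7, 6, 10], [1, 2, 1, 2, 1, 1, 2, 1, 2, 2, 2, 1], [244, 252, 540, 6, 324, 243]),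
  (1, 4, [0, 2, 3, 4, 1, 5, 11, 8, 6, 9, 10, 7], [0, 4, 1, 2, 3, 5, 8, 11, 7, 9, 10, 6], [1, 2, 1, 2, 1, 1, 2, 1, 2, 2, 2, 1], [487, 252, 54, 567, 249, 486]),
  (1, 5, [0, 2, 3, 4, 5, 1, 9, 7, 10, 11, 6, 8], [0, 5, 1, 2, 3, 4, 10, 7, 11, 6, 8, 9], [1, 2, 1, 2, 1, 1, 2, 1, 2, 2, 2, 1], [493, 15, 546, 570, 489, 243]),
  (1, 6, [0, 2, 3, 4, 9, 11, 1, 10, 8, 5, 7, 6], [0, 6, 1, 2, 3, 9, 11, 10, 8, 4, 7, 5], [1, 2, 2, 1, 1, 1, 2, 1, 2, 2, 2, 1], [244, 261, 513, 81, 243, 249]),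
  (1, 7, [0, 2, 3, 4, 7, 8, 6, 1, 9, 10, 11, 5], [0, 7, 1, 2, 3, 11, 6, 4, 5, 8, 9, 10], [1, 1, 2, 2, 2, 2, 1, 2, 1, 1, 1, 2], [1, 24, 57, 168, 3, 246]),
  (1, 8, [0, 2, 3, 4, 10, 6, 7, 11, 1, 8, 5, 9], [0, 8, 1, 2, 3, 10, 5, 6, 9, 11, 4, 7], [1, 1, 1, 1, 2, 2, 1, 2, 1, 1, 1, 2], [247, 258, 270, 651, 492, 3]),
  (1, 9, [0, 2, 3, 4, 11, 9, 5, 6, 7, 1, 8, 10], [0, 9, 1, 2, 3, 6, 7, 8, 10, 5, 11, 4], [1, 2, 2, 1, 1, 1, 2, 1, 2, 2, 2, 1], [7, 264, 516, 327, 486, 489]),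
  (1, 10, [0, 2, 3, 4, 6, 10, 8, 9, 5, 7, 1, 11], [0, 10, 1, 2, 3, 8, 4, 9, 6, 7, 5, 11], [1, 1, 1, 1, 2, 2, 1, 2, 1, 1, 1, 2], [4, 9, 30, 165, 246, 6]),
  (1, 11, [0, 2, 3, 4, 8, 7, 10, 5, 11, 6, 9, 1], [0, 11, 1, 2, 3, 7, 9, 5, 4, 10, 6, 8], [1, 1, 2, 2, 2, 2, 1, 2, 1, 1, 1, 2], [250, 510, 543, 648, 6, 492]),
  (2, 2, [0, 1, 2, 3, 4, 5, 6, 7, 8, 9, 10, 11], [0, 1, 2, 3, 4, 5, 6, 7, 8, 9, 10, 11], [1, 1, 1, 1, 1, 1, 1, 1, 1, 1, 1, 1], [1, 3, 9, 27, 81, 243]),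
  (2, 3, [0, 1, 3, 2, 4, 5, 7, 6, 10, 11, 8, 9], [0, 1, 3, 2, 4, 5, 7, 6, 10, 11, 8, 9], [1, 1, 2, 2, 1, 1, 2, 2, 1, 2, 1, 2], [1, 246, 540, 261, 567, 486]),
  (2, 4, [0, 1, 3, 4, 2, 5, 8, 11, 9, 6, 7, 10], [0, 1, 4, 2, 3, 5, 9, 10, 6, 8, 11, 7], [1, 1, 2, 2, 1, 1, 2, 2, 1, 2, 1, 2], [487, 246, 297, 324, 18, 243]),
  (2, 5, [0, 1, 3, 4, 5, 2, 6, 10, 7, 8, 9, 11], [0, 1, 5, 2, 3, 4, 6, 8, 9, 10, 7, 11], [1, 1, 2, 2, 1, 1, 2, 2, 1, 2, 1, 2], [19, 21, 72, 90, 9, 486]),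
  (2, 6, [0, 1, 3, 4, 6, 8, 2, 7, 11, 5, 10, 9], [0, 1, 6, 2, 3, 9, 4, 7, 5, 11, 10, 8], [1, 2, 2, 1, 1, 1, 2, 2, 1, 2, 1, 2], [1, 6, 27, 81, 486, 18]),
  (2, 7, [0, 1, 3, 4, 10, 11, 9, 2, 6, 7, 8, 5], [0, 1, 7, 2, 3, 11, 8, 9, 10, 6, 4, 5], [1, 2, 1, 2, 2, 2, 1, 1, 2, 1, 2, 1], [244, 510, 63, 423, 495, 252]),
  (2, 8, [0, 1, 3, 4, 7, 9, 10, 8, 2, 11, 5, 6], [0, 1, 8, 2, 3, 10, 11, 4, 7, 5, 6, 9], [1, 1, 1, 1, 2, 2, 1, 1, 2, 1, 2, 1], [496, 507, 270, 171, 504, 495]),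
  (2, 9, [0, 1, 3, 4, 8, 6, 5, 9, 10, 2, 11, 7], [0, 1, 9, 2, 3, 6, 5, 11, 4, 7, 8, 10], [1, 2, 2, 1, 1, 1, 2, 2, 1, 2, 1, 2], [505, 501, 522, 333, 243, 9]),
  (2, 10, [0, 1, 3, 4, 9, 7, 11, 6, 5, 10, 2, 8], [0, 1, 10, 2, 3, 8, 7, 5, 11, 4, 9, 6], [1, 1, 1, 1, 2, 2, 1, 1, 2, 1, 2, 1], [10, 489, 279, 657, 252, 261]),
  (2, 11, [0, 1, 3, 4, 11, 10, 7, 5, 8, 9, 6, 2], [0, 1, 11, 2, 3, 7, 10, 6, 8, 9, 5, 4], [1, 2, 1, 2, 2, 2, 1, 1, 2, 1, 2, 1], [262, 24, 306, 405, 261, 504]),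
  (3, 3, [0, 1, 2, 3, 4, 5, 6, 7, 8, 9, 10, 11], [0, 1, 2, 3, 4, 5, 6, 7, 8, 9, 10, 11], [1, 1, 1, 1, 1, 1, 1, 1, 1, 1, 1, 1], [1, 3, 9, 27, 81, 243]),
  (3, 4, [0, 1, 2, 4, 3, 5, 10, 9, 11, 7, 6, 8], [0, 1, 2, 4, 3, 5, 10, 9, 11, 7, 6, 8], [1, 1, 1, 1, 1, 1, 1, 1, 1, 1, 1, 1], [244, 3, 252, 324, 270, 486]),
  (3, 5, [0, 1, 2, 4, 5, 3, 7, 8, 6, 10, 11, 9], [0, 1, 2, 5, 3, 4, 8, 6, 7, 11, 9, 10], [1, 1, 1, 1, 1, 1, 1, 1, 1, 1, 1, 1], [271, 516, 36, 378, 540, 243]),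
  (3, 6, [0, 1, 2, 4, 7, 10, 3, 6, 9, 5, 8, 11], [0, 1, 2, 6, 3, 9, 7, 4, 10, 8, 5, 11], [1, 2, 2, 1, 1, 1, 1, 1, 1, 1, 1, 1], [1, 492, 261, 567, 243, 270]),
  (3, 7, [0, 1, 2, 4, 8, 9, 11, 3, 7, 6, 10, 5], [0, 1, 2, 7, 3, 11, 9, 8, 4, 5, 10, 6], [1, 2, 1, 2, 2, 2, 2, 2, 2, 2, 2, 2], [487, 276, 306, 432, 54, 297]),
  (3, 8, [0, 1, 2, 4, 6, 11, 8, 10, 3, 9, 5, 7], [0, 1, 2, 8, 3, 10, 4, 11, 6, 9, 7, 5], [1, 1, 2, 2, 2, 2, 2, 2, 2, 2, 2, 2], [55, 30, 18, 216, 513, 54]),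
  (3, 9, [0, 1, 2, 4, 10, 7, 5, 11, 8, 3, 9, 6], [0, 1, 2, 9, 3, 6, 11, 5, 8, 10, 4, 7], [1, 2, 2, 1, 1, 1, 1, 1, 1, 1, 1, 1], [514, 546, 315, 135, 486, 540]),
  (3, 10, [0, 1, 2, 4, 11, 6, 9, 7, 5, 8, 3, 10], [0, 1, 2, 10, 3, 8, 5, 7, 9, 6, 11, 4], [1, 1, 2, 2, 2, 2, 2, 2, 2, 2, 2, 2], [541, 489, 558, 459, 297, 27]),
  (3, 11, [0, 1, 2, 4, 9, 8, 6, 5, 10, 11, 7, 3], [0, 1, 2, 11, 3, 7, 6, 10, 5, 4, 8, 9], [1, 2, 1, 2, 2, 2, 2, 2, 2, 2, 2, 2], [28, 33, 63, 162, 27, 513]),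
  (4, 4, [0, 1, 2, 3, 4, 5, 6, 7, 8, 9, 10, 11], [0, 1, 2, 3, 4, 5, 6, 7, 8, 9, 10, 11], [1, 1, 1, 1, 1, 1, 1, 1, 1, 1, 1, 1], [1, 3, 9, 27, 81, 243]),
  (4, 5, [0, 1, 2, 3, 5, 4, 9, 11, 10, 6, 8, 7], [0, 1, 2, 3, 5, 4, 9, 11, 10, 6, 8, 7], [1, 1, 1, 1, 1, 1, 1, 1, 1, 1, 1, 1], [325, 570, 576, 675, 162, 486]),
  (4, 6, [0, 1, 2, 3, 9, 6, 4, 10, 7, 5, 11, 8], [0, 1, 2, 3, 6, 9, 5, 8, 11, 4, 7, 10], [1, 2, 2, 1, 1, 1, 1, 1, 1, 1, 1, 1], [244, 249, 261, 513, 486, 81]),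
  (4, 7, [0, 1, 2, 3, 11, 7, 8, 4, 9, 10, 6, 5], [0, 1, 2, 3, 7, 11, 10, 5, 6, 8, 9, 4], [1, 2, 1, 2, 2, 2, 2, 2, 2, 2, 2, 2], [487, 87, 657, 621, 648, 405]),
  (4, 8, [0, 1, 2, 3, 10, 8, 11, 6, 4, 7, 5, 9], [0, 1, 2, 3, 8, 10, 7, 9, 5, 11, 4, 6], [1, 1, 2, 2, 2, 2, 2, 2, 2, 2, 2, 2], [163, 327, 504, 459, 567, 648]),
  (4, 9, [0, 1, 2, 3, 6, 9, 5, 8, 11, 4, 7, 10], [0, 1, 2, 3, 9, 6, 4, 10, 7, 5, 11, 8], [1, 2, 2, 1, 1, 1, 1, 1, 1, 1, 1, 1], [82, 168, 180, 189, 243, 162]),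
  (4, 10, [0, 1, 2, 3, 8, 10, 7, 9, 5, 11, 4, 6], [0, 1, 2, 3, 10, 8, 11, 6, 4, 7, 5, 9], [1, 1, 2, 2, 2, 2, 2, 2, 2, 2, 2, 2], [406, 246, 666, 216, 405, 324]),
  (4, 11, [0, 1, 2, 3, 7, 11, 10, 5, 6, 8, 9, 4], [0, 1, 2, 3, 11, 7, 8, 4, 9, 10, 6, 5], [1, 2, 1, 2, 2, 2, 2, 2, 2, 2, 2, 2], [568, 330, 171, 540, 324, 567])]

/-- The check of one element. -/
def eltOK (e : ℕ × ℕ × List ℕ × List ℕ × List ℕ × List ℕ) : Bool :=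
  let (k, y, p, q, c, ns) := e
  decide (y < 12) && ((List.range 12).all fun i => decide (p.getD i 0 < 12) && decide (q.getD i 0 < 12) &&
    decide (q.getD (p.getD i 0) 0 = i) && decide (p.getD (q.getD i 0) 0 = i) && decide (c.getD i 0 % 3 ≠ 0)) &&
  ((List.range 6).all fun j => decide (ns.getD j 0 < 729) &&
    (List.range 12).all fun i => decide (val (ns.getD j 0) i = c.getD i 0 * val (3 ^ j) (q.getD i 0) % 3)) &&
  ((List.range k).all fun i => decide (p.getD i 0 = i)) && decide (p.getD y 0 = k)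

theorem elts_ok : elts.all eltOK = true ∧
    ((List.range 5).all fun k => (List.range 12).all fun y =>
      decide (y < k) || elts.any fun e => decide (e.1 = k) && decide (e.2.1 = y)) = true := by
  decide +kernel

theorem val_pow_check : ∀ j < 6, ∀ i < 12, val (3 ^ j) i = (coef.getD i []).getD j 0 % 3 := by decide +kernel

theorem word_expand (n : ℕ) : word n = ∑ j ∈ Finset.range 6, (dig n j : ZMod 3) • word (3 ^ j) := by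
  funext p
  rw [Finset.sum_apply]
  simp only [Pi.smul_apply, smul_eq_mul]
  rw [word, val, ZMod.natCast_mod]
  simp only [word, Finset.sum_range_succ, Finset.sum_range_zero, zero_add]
  rw [val_pow_check 0 (by norm_num) _ (idx_lt p), val_pow_check 1 (by norm_num) _ (idx_lt p),
    val_pow_check 2 (by norm_num) _ (idx_lt p), val_pow_check 3 (by norm_num) _ (idx_lt p),
    val_pow_check 4 (by norm_num) _ (idx_lt p), val_pow_check 5 (by norm_num) _ (idx_lt p)]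
  simp only [List.range_succ, List.range_zero, List.nil_append, List.map_append, List.map_cons, List.map_nil,
    List.sum_append, List.sum_cons, List.sum_nil, add_zero, List.cons_append, ZMod.natCast_mod, Nat.cast_add, Nat.cast_mul]
  ring

/-- The permutation parts of monomial automorphisms. -/
def Liftable (σ : Equiv.Perm ArrayPt) : Prop :=
  ∃ c : ArrayPt → (ZMod 3)ˣ, ∀ x ∈ ternaryGolayCode, monomialMap σ c x ∈ ternaryGolayCode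

theorem monomialMap_linear (σ : Equiv.Perm ArrayPt) (c : ArrayPt → (ZMod 3)ˣ) {ι : Type*} (s : Finset ι)
    (a : ι → ZMod 3) (v : ι → ArrayPt → ZMod 3) :
    monomialMap σ c (∑ j ∈ s, a j • v j) = ∑ j ∈ s, a j • monomialMap σ c (v j) := by
  funext p
  simp only [monomialMap, Finset.sum_apply, Pi.smul_apply, smul_eq_mul, Finset.mul_sum]
  exact Finset.sum_congr rfl fun j _ => by ring

theorem exists_elt {k y : ℕ} (hk : k < 5) (hy : k ≤ y) (hy' : y < 12) :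
    ∃ u : Equiv.Perm ArrayPt, Liftable u ∧ (∀ i < k, u (pt i) = pt i) ∧ u (pt y) = pt k := by
  obtain ⟨h1, h2⟩ := elts_ok
  simp only [List.all_eq_true, List.mem_range, Bool.or_eq_true, decide_eq_true_eq, List.any_eq_true,
    Bool.and_eq_true] at h2
  rcases h2 k hk y hy' with h | ⟨e, he, hek, hey⟩
  · omega
  obtain ⟨k', y', p, q, c, ns⟩ := e
  simp only at hek hey
  subst hek hey
  have hok := List.all_eq_true.1 h1 _ he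
  simp only [eltOK, Bool.and_eq_true, List.all_eq_true, List.mem_range, decide_eq_true_eq] at hok
  obtain ⟨⟨⟨⟨-, hperm⟩, hns⟩, hfix⟩, hyk⟩ := hok
  let σ : Equiv.Perm ArrayPt :=
    { toFun := fun a => pt (p.getD (idx a) 0)
      invFun := fun a => pt (q.getD (idx a) 0)
      left_inv := fun a => by
        obtain ⟨⟨⟨⟨hp, hq⟩, hqp⟩, hpq⟩, -⟩ := hperm _ (idx_lt a)
        show pt (q.getD (idx (pt (p.getD (idx a) 0))) 0) = a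
        rw [idx_pt _ hp, hqp, pt_idx]
      right_inv := fun a => by
        obtain ⟨⟨⟨⟨hp, hq⟩, hqp⟩, hpq⟩, -⟩ := hperm _ (idx_lt a)
        show pt (p.getD (idx (pt (q.getD (idx a) 0))) 0) = a
        rw [idx_pt _ hq, hpq, pt_idx] }
  let cu : ArrayPt → (ZMod 3)ˣ := fun a => if c.getD (idx a) 0 % 3 = 1 then 1 else -1
  have hcu : ∀ a, ((cu a : (ZMod 3)ˣ) : ZMod 3) = (c.getD (idx a) 0 : ZMod 3) := fun a => by
    have hne := (hperm _ (idx_lt a)).2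
    have hm := ZMod.natCast_mod (c.getD (idx a) 0) 3
    simp only [cu]
    by_cases h : c.getD (idx a) 0 % 3 = 1
    · rw [if_pos h, ← hm, h]; rfl
    · rw [if_neg h, ← hm, show c.getD (idx a) 0 % 3 = 2 by omega]; rfl
  refine ⟨σ, ⟨cu, fun x hx => ?_⟩, fun i hi => ?_, ?_⟩
  · obtain ⟨n, -, rfl⟩ := exists_word hx
    rw [word_expand n, monomialMap_linear]
    refine Submodule.sum_mem _ fun j hj => Submodule.smul_mem _ _ ?_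
    obtain ⟨hnj, hv⟩ := hns j (Finset.mem_range.1 hj)
    have : monomialMap σ cu (word (3 ^ j)) = word (ns.getD j 0) := by
      funext a
      obtain ⟨⟨⟨⟨-, hq⟩, -⟩, -⟩, -⟩ := hperm _ (idx_lt a)
      show (cu a : ZMod 3) * word (3 ^ j) (pt (q.getD (idx a) 0)) = _
      rw [word, word, hcu, idx_pt _ hq, hv _ (idx_lt a), ZMod.natCast_mod, Nat.cast_mul]
    rw [this]
    exact word_mem hnj
  · show pt (p.getD (idx (pt i)) 0) = pt i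
    rw [idx_pt i (by omega), hfix i hi]
  · show pt (p.getD (idx (pt y')) 0) = pt k'
    rw [idx_pt y' hy', hyk]

theorem liftable_one : Liftable 1 :=
  ⟨fun _ => 1, fun x hx => by
    have : monomialMap (1 : Equiv.Perm ArrayPt) (fun _ => (1 : (ZMod 3)ˣ)) x = x := by
      funext a; simp [monomialMap, Equiv.Perm.one_symm]
    rwa [this]⟩

theorem liftable_mul {σ τ : Equiv.Perm ArrayPt} (hσ : Liftable σ) (hτ : Liftable τ) : Liftable (σ * τ) := by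
  obtain ⟨c, hc⟩ := hσ
  obtain ⟨d, hd⟩ := hτ
  refine ⟨fun a => c a * d (σ.symm a), fun x hx => ?_⟩
  have : monomialMap (σ * τ) (fun a => c a * d (σ.symm a)) x = monomialMap σ c (monomialMap τ d x) := by
    funext a
    show _ * x ((τ.trans σ).symm a) = _
    simp [monomialMap, mul_assoc]
  rw [this]
  exact hc _ (hd x hx)

/-- The hexad system. -/
def hexSys : Set (Finset ArrayPt) :=
  {h : Finset ArrayPt | ∃ x ∈ ternaryGolayCode, ternarySupport x = h ∧ h.card = 6}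

theorem liftable_aut {σ : Equiv.Perm ArrayPt} (hσ : Liftable σ) : σ ∈ setSystemAut hexSys := by
  obtain ⟨c, hc⟩ := hσ
  rw [MulAction.mem_stabilizer_iff]
  refine Set.eq_of_subset_of_ncard_le ?_ (le_of_eq (Set.ncard_smul_set _ _).symm) (Set.toFinite _)
  rintro _ ⟨h, ⟨x, hx, hs, h6⟩, rfl⟩
  refine ⟨_, hc x hx, ?_, by rw [Finset.card_smul_finset]; exact h6⟩
  subst hs
  ext a
  show a ∈ _ ↔ a ∈ σ • ternarySupport x
  rw [← Finset.inv_smul_mem_iff]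
  simp [ternarySupport, monomialMap, Equiv.Perm.smul_def]

theorem card_pts : Fintype.card ArrayPt = 12 := by decide

theorem aut_data : Nat.card (setSystemAut hexSys) = 95040 ∧
    ∀ π ∈ setSystemAut hexSys, (∀ i < 5, π (pt i) = pt i) → π = 1 := by
  obtain ⟨e, he⟩ := SteinerCert.unique_twelve card_pts (show IsSteinerSystem 5 6 hexSys from isSteiner)
  obtain ⟨hiso, htr, hfix⟩ := SteinerCert.twelve
  obtain ⟨⟨i⟩, -, hs⟩ := SteinerCert.transfer hiso htr hfix e he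
  refine ⟨(Nat.card_congr i.toEquiv).symm.trans Golay.Chain.card_G12, fun π hπ h => ?_⟩
  let x : Fin 5 ↪ ArrayPt := ⟨fun i => pt i.val, fun a b hab => Fin.ext (by
    have := congrArg idx hab
    rwa [idx_pt _ (by omega), idx_pt _ (by omega)] at this)⟩
  have hm : (⟨π, hπ⟩ : setSystemAut hexSys) ∈ MulAction.stabilizer (setSystemAut hexSys) x :=
    MulAction.mem_stabilizer_iff.2 (DFunLike.ext _ _ fun i => h i.val i.isLt)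
  rw [hs x, Subgroup.mem_bot] at hm
  exact congrArg Subtype.val hm

theorem aut_liftable {π : Equiv.Perm ArrayPt} (hπ : π ∈ setSystemAut hexSys) : Liftable π := by
  have key : ∀ k ≤ 5, ∃ g, Liftable g ∧ ∀ i < k, g (π⁻¹ (pt i)) = pt i := by
    intro k
    induction k with
    | zero => exact fun _ => ⟨1, liftable_one, fun i hi => absurd hi (Nat.not_lt_zero i)⟩
    | succ k ih =>
      intro hk
      obtain ⟨g, hg, hgf⟩ := ih (by omega)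
      obtain ⟨u, hu, hufix, huy⟩ := exists_elt (k := k) (y := idx (g (π⁻¹ (pt k)))) (by omega) (by
        by_contra hlt
        have h := hgf _ (not_le.1 hlt)
        have hlt12 : idx (g (π⁻¹ (pt k))) < 12 := idx_lt _
        rw [pt_idx] at h
        have h2 := congrArg idx ((π⁻¹).injective (g.injective h))
        rw [idx_pt k (by omega)] at h2
        omega) (idx_lt _)
      refine ⟨u * g, liftable_mul hu hg, fun i hi => ?_⟩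
      rw [Equiv.Perm.mul_apply]
      rcases Nat.lt_succ_iff_lt_or_eq.1 hi with h | rfl
      · rw [hgf i h, hufix i h]
      · rw [pt_idx] at huy; exact huy
  obtain ⟨g, hg, hgf⟩ := key 5 le_rfl
  have := aut_data.2 (g * π⁻¹) (mul_mem (liftable_aut hg) (inv_mem hπ)) hgf
  rw [mul_inv_eq_one] at this
  exact this ▸ hg

theorem signs_unique {σ : Equiv.Perm ArrayPt} {c c' : ArrayPt → (ZMod 3)ˣ}
    (hc : ∀ x ∈ ternaryGolayCode, monomialMap σ c x ∈ ternaryGolayCode)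
    (hc' : ∀ x ∈ ternaryGolayCode, monomialMap σ c' x ∈ ternaryGolayCode)
    (hker : ∀ d : ArrayPt → (ZMod 3)ˣ, (∀ x ∈ ternaryGolayCode, monomialMap 1 d x ∈ ternaryGolayCode) →
      (∀ p, d p = 1) ∨ ∀ p, d p = -1) :
    ∃ u : (ZMod 3)ˣ, c' = fun p => u * c p := by
  have hsq : ∀ v : (ZMod 3)ˣ, v * v = 1 := by decide
  let f : ternaryGolayCode → ternaryGolayCode := fun x => ⟨monomialMap σ c x, hc x x.2⟩
  have hinj : Function.Injective f := fun a b h => by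
    apply Subtype.ext; funext p
    have := congrFun (congrArg Subtype.val h) (σ p)
    simpa [f, monomialMap] using this
  have hd : ∀ y ∈ ternaryGolayCode, monomialMap 1 (fun p => c' p * c p) y ∈ ternaryGolayCode := by
    intro y hy
    obtain ⟨⟨x, hx⟩, hxy⟩ := Finite.surjective_of_injective hinj ⟨y, hy⟩
    have hxy' : monomialMap σ c x = y := congrArg Subtype.val hxy
    have : monomialMap 1 (fun p => c' p * c p) y = monomialMap σ c' x := by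
      funext p
      rw [← hxy']
      simp only [monomialMap, Equiv.Perm.one_symm, Equiv.Perm.one_apply, Units.val_mul]
      rw [mul_assoc, ← mul_assoc (c p : ZMod 3), ← Units.val_mul, hsq, Units.val_one, one_mul]
    rw [this]
    exact hc' x hx
  rcases hker _ hd with h | h
  · exact ⟨1, funext fun p => (by rw [mul_assoc, hsq, mul_one] : c' p = c' p * c p * c p).trans (by rw [h p])⟩
  · exact ⟨-1, funext fun p => (by rw [mul_assoc, hsq, mul_one] : c' p = c' p * c p * c p).trans (by rw [h p])⟩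

theorem card_monomial (hker : ∀ d : ArrayPt → (ZMod 3)ˣ,
    (∀ x ∈ ternaryGolayCode, monomialMap 1 d x ∈ ternaryGolayCode) → (∀ p, d p = 1) ∨ ∀ p, d p = -1) :
    Nat.card {f : Equiv.Perm ArrayPt × (ArrayPt → (ZMod 3)ˣ) //
      ∀ x ∈ ternaryGolayCode, monomialMap f.1 f.2 x ∈ ternaryGolayCode} = 190080 := by
  classical
  choose C hC using fun π : setSystemAut hexSys => aut_liftable π.2
  have hmem : ∀ (π : setSystemAut hexSys) (u : (ZMod 3)ˣ), ∀ x ∈ ternaryGolayCode,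
      monomialMap π.1 (fun p => u * C π p) x ∈ ternaryGolayCode := fun π u x hx => by
    have : monomialMap π.1 (fun p => u * C π p) x = (u : ZMod 3) • monomialMap π.1 (C π) x := by
      funext p; simp [monomialMap, mul_assoc]
    rw [this]
    exact Submodule.smul_mem _ _ (hC π x hx)
  have hbij : Function.Bijective (fun w : setSystemAut hexSys × (ZMod 3)ˣ =>
      (⟨(w.1.1, fun p => w.2 * C w.1 p), hmem w.1 w.2⟩ : {f : Equiv.Perm ArrayPt × (ArrayPt → (ZMod 3)ˣ) //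
        ∀ x ∈ ternaryGolayCode, monomialMap f.1 f.2 x ∈ ternaryGolayCode})) := by
    constructor
    · rintro ⟨a, u⟩ ⟨b, v⟩ h
      have h' := congrArg Subtype.val h
      obtain rfl : a = b := Subtype.ext (congrArg Prod.fst h')
      have := congrFun (congrArg Prod.snd h') (pt 0)
      exact Prod.ext rfl (mul_right_cancel this)
    · rintro ⟨⟨σ, c⟩, hc⟩
      obtain ⟨u, hu⟩ := signs_unique (hC ⟨σ, liftable_aut ⟨c, hc⟩⟩) hc hker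
      exact ⟨(⟨σ, liftable_aut ⟨c, hc⟩⟩, u), Subtype.ext (Prod.ext rfl hu.symm)⟩
  rw [← Nat.card_congr (Equiv.ofBijective _ hbij), Nat.card_prod, aut_data.1, Nat.card_eq_fintype_card,
    ZMod.card_units]

end Cfsg.Lib.TernaryGolay
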